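import Cfsg.Agent.Lib.Chev.F4AltSection.Main
import Cfsg.Agent.Lib.Chev.TwistF4ReeResults

/-!
Alternating sections of the large Ree groups have degree at most `6`.
-/

set_option autoImplicit false

namespace Cfsg.Agent.Lib.Chev.F4ReeSection

open Cfsg.Lie Cfsg.Agent.Lib Cfsg.Agent.Lib.Chev
open Cfsg.Agent.Lib.Chev.F4AltSection (lift_one image_relations extAlt extAlt_injective root_eq_of_wMat)
open Cfsg.Agent.Lib.Chev.CoxTorus (wMat wMat_pow wMat_eq_one mono_torus_iff conj_decomp')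
open Equiv

def s7 : ↥(alternatingGroup (Fin 7)) :=
  ⟨List.formPerm [0, 1, 2, 3, 4, 5, 6], Perm.mem_alternatingGroup.2 (by decide +kernel)⟩

def g7 : ↥(alternatingGroup (Fin 7)) :=
  ⟨List.formPerm [1, 2, 4] * List.formPerm [3, 6, 5], Perm.mem_alternatingGroup.2 (by decide +kernel)⟩

theorem facts7 : s7 ^ 7 = 1 ∧ s7 ≠ 1 ∧ g7 * s7 * g7⁻¹ = s7 ^ 2 := by decide +kernel

theorem mod_seven : ∀ x : ZMod 7,
    (x ^ 3 = 1 → x ≠ 1 → x ^ 12 * (x - 1) * (x ^ 3 + 1) * (x ^ 4 - 1) * (x ^ 6 + 1) ≠ 0) ∧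
      (x = 1 → x ^ 12 * (x ^ 3 + 1) * (x ^ 3 + x ^ 2 + x + 1) * (x ^ 6 + 1) ≠ 0) := by
  decide

theorem eight_pow (n : ℕ) : ((2 : ZMod 7) ^ n) ^ 3 = 1 := by
  rw [← pow_mul, mul_comm, pow_mul, show ((2 : ZMod 7) ^ 3) = 1 by decide, one_pow]

variable {K : Type*} [Field K]

/-- Powers of a normalising element acting trivially on the roots centralise. -/
theorem centralise (b n u : GL chevF4.Idx K) (hb : b ∈ chevF4.borelSubgroup K) (hn : n ∈ chevF4.monomialSubgroup K)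
    (hu : u ∈ grp chevF4 K (F4.checked.inv n)) (S : Set (GL chevF4.Idx K))
    (hS : ∀ x ∈ S, x ∈ chevF4.diagonalSubgroup K) (hγ : ∀ x ∈ S, b * n * u * x * (b * n * u)⁻¹ ∈ S)
    {k : ℕ} (hk : wMat F4.checked n ^ k = 1) {x : GL chevF4.Idx K} (hx : x ∈ S) :
    (b * n * u) ^ k * x * ((b * n * u) ^ k)⁻¹ = x := by
  set C := F4.checked
  set g := b * n * u with hg
  have h1 : ∀ x ∈ S, g * x * g⁻¹ = n * x * n⁻¹ := by
    intro x hx
    obtain ⟨c, hc⟩ := C.exists_torus (hS x hx)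
    obtain ⟨c', hc'⟩ := C.exists_torus (hS _ (hγ x hx))
    have hrel := (conj_decomp' C hb hn hu (c := c) (c' := c') (by rw [hc', hc, ← hg]; group)).1
    rw [← hc', ← hc, eq_mul_inv_iff_mul_eq]
    exact ((mono_torus_iff C hn c c').2 hrel).symm
  have h2 : ∀ (j : ℕ), g ^ j * x * (g ^ j)⁻¹ ∈ S ∧ g ^ j * x * (g ^ j)⁻¹ = n ^ j * x * (n ^ j)⁻¹ := by
    intro j
    induction j with
    | zero => simpa using hx
    | succ j ih =>
      have e1 : g ^ (j + 1) * x * (g ^ (j + 1))⁻¹ = g * (g ^ j * x * (g ^ j)⁻¹) * g⁻¹ := by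
        rw [pow_succ']; group
      refine ⟨e1 ▸ hγ _ ih.1, ?_⟩
      rw [e1, h1 _ ih.1, ih.2, pow_succ']
      group
  rw [(h2 k).2]
  obtain ⟨c, rfl⟩ := C.exists_torus (hS x hx)
  rw [← wMat_pow C hn] at hk
  have hnk := pow_mem hn k
  rw [mul_inv_eq_iff_eq_mul, (mono_torus_iff C hnk c c).2 fun v hv => by rw [(root_eq_of_wMat hnk hv).1 hk]]

theorem section_bound [Fintype K] {m : ℕ} (hm : 1 ≤ m) (hK : Fintype.card K = 2 ^ (2 * m + 1)) (r : ℕ)
    (H : Subgroup ↥(twistedF4 K (2 ^ m))) (π : ↥H →* ↥(alternatingGroup (Fin r))) (hπ : Function.Surjective π) :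
    r ≤ 6 := by
  classical
  obtain ⟨hchar, θ, hθ⟩ := F4.exists_theta hK
  have h7 : Fact (Nat.Prime 7) := ⟨by norm_num⟩
  set C := F4.checked
  by_contra hr
  push Not at hr
  have hr7 : 7 ≤ r := by omega
  set e := extAlt hr7
  obtain ⟨hs, hs1, hgs⟩ := facts7
  obtain ⟨A, γ, hA, hγA, ⟨x, hx, hxs⟩, c, hcs, hπγ⟩ :=
    lift_one π hπ (a := 7) (s := e s7) (g := e g7) (by rw [← map_pow, hs, map_one])
      (by rw [← map_inv, ← map_mul, ← map_mul, hgs, map_pow]; exact Subgroup.npow_mem_zpowers _ _)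
  set q := 2 ^ (2 * m + 1) with hq
  have hq1 : 1 ≤ q := Nat.one_le_two_pow
  have hq4 : 1 ≤ q ^ 4 := Nat.one_le_pow _ _ hq1
  set A' := A.map H.subtype with hA'
  have hA'7 : IsPGroup 7 A' := hA.map _
  have hne : x ≠ 1 := fun h => hs1 (extAlt_injective hr7 (by rw [map_one, ← map_one π, ← h, hxs]))
  have h7dvd : 7 ∣ Nat.card ↥(twistedF4 K (2 ^ m)) := by
    obtain ⟨k, hk⟩ := hA'7.exists_card_eq
    have hx' : (x : ↥(twistedF4 K (2 ^ m))) ∈ A' := ⟨x, hx, rfl⟩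
    have hnt : 1 < Nat.card A' := by
      rw [Finite.one_lt_card_iff_nontrivial]
      exact ⟨⟨⟨_, hx'⟩, 1, fun h => hne (Subtype.ext (congrArg (fun z : A' => (z : ↥(twistedF4 K (2 ^ m)))) h))⟩⟩
    have : k ≠ 0 := fun h => by rw [hk, h, pow_zero] at hnt; omega
    exact (hk ▸ dvd_pow_self 7 this).trans (Subgroup.card_subgroup_dvd_card A')
  have hcard := F4.card_ree θ hθ hK
  rw [← hq] at hcard
  have hqv : (q : ZMod 7) = 1 := by
    by_contra hne'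
    have h0 := (ZMod.natCast_eq_zero_iff _ 7).2 h7dvd
    rw [hcard] at h0
    simp only [Nat.cast_mul, Nat.cast_add, Nat.cast_sub hq1, Nat.cast_sub hq4, Nat.cast_pow, Nat.cast_one] at h0
    refine (mod_seven q).1 ?_ hne' h0
    rw [hq, Nat.cast_pow]
    exact eight_pow _
  -- the Sylow subgroup in the torus
  set T₁ := (chevF4.diagonalSubgroup K ⊓ (F4.reeTwist θ).fixed).subgroupOf (twistedF4 K (2 ^ m)) with hT₁
  have hle : chevF4.diagonalSubgroup K ⊓ (F4.reeTwist θ).fixed ≤ twistedF4 K (2 ^ m) := F4.diag_fixed_le θ hθ hK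
  have hTcard : Nat.card T₁ = (q - 1) ^ 2 := by
    rw [Nat.card_congr (Subgroup.subgroupOfEquivOfLe hle).toEquiv, F4.card_diag_fixed θ hθ hK, hK]
  have hidx : ¬ 7 ∣ T₁.index := by
    intro hdvd
    have h1 := Subgroup.card_mul_index T₁
    rw [hTcard, hcard] at h1
    have hqlt : 1 < q := Nat.one_lt_two_pow (by omega)
    have h2 : T₁.index = q ^ 12 * (q ^ 3 + 1) * (q ^ 3 + q ^ 2 + q + 1) * (q ^ 6 + 1) := by
      refine Nat.eq_of_mul_eq_mul_left (by positivity [Nat.sub_pos_of_lt hqlt] : 0 < (q - 1) ^ 2) (h1.trans ?_)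
      zify [hq1, hq4]
      ring
    have h0 := (ZMod.natCast_eq_zero_iff _ 7).2 hdvd
    rw [h2] at h0
    simp only [Nat.cast_mul, Nat.cast_add, Nat.cast_pow, Nat.cast_one] at h0
    exact (mod_seven q).2 hqv h0
  obtain ⟨R₀⟩ : Nonempty (Sylow 7 ↥T₁) := inferInstance
  let R₁ : Sylow 7 ↥(twistedF4 K (2 ^ m)) := Sylow.ofCard ((R₀ : Subgroup ↥T₁).map T₁.subtype) (by
    rw [Subgroup.card_map_of_injective T₁.subtype_injective, R₀.card_eq_multiplicity,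
      ← Subgroup.card_mul_index T₁, Nat.factorization_mul Nat.card_pos.ne' Subgroup.index_ne_zero_of_finite,
      Finsupp.add_apply, Nat.factorization_eq_zero_of_not_dvd hidx, add_zero])
  obtain ⟨R₂, hR₂⟩ := hA'7.exists_le_sylow
  obtain ⟨g, hg⟩ := MulAction.exists_smul_eq ↥(twistedF4 K (2 ^ m)) R₂ R₁
  have hdiag : ∀ y ∈ A', ((g * y * g⁻¹ : ↥(twistedF4 K (2 ^ m))) : GL chevF4.Idx K) ∈ chevF4.diagonalSubgroup K := by
    intro y hy
    have hmem : g * y * g⁻¹ ∈ (R₁ : Subgroup ↥(twistedF4 K (2 ^ m))) := by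
      rw [← hg, Sylow.smul_def, Sylow.pointwise_smul_def, Subgroup.mem_pointwise_smul_iff_inv_smul_mem]
      simp only [← map_inv, MulAut.smul_def, MulAut.conj_apply, inv_inv]
      rw [show g⁻¹ * (g * y * g⁻¹) * g = y by group]
      exact hR₂ hy
    obtain ⟨z, -, hz⟩ := Subgroup.mem_map.1 hmem
    rw [← hz]
    exact (Subgroup.mem_inf.1 (Subgroup.mem_subgroupOf.1 z.2)).1
  set φ : ↥(twistedF4 K (2 ^ m)) →* GL chevF4.Idx K :=
    (twistedF4 K (2 ^ m)).subtype.comp (MulAut.conj g).toMonoidHom with hφ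
  have hφinj : Function.Injective φ := Subtype.val_injective.comp (MulAut.conj g).injective
  set γ' : ↥(twistedF4 K (2 ^ m)) := (γ : ↥(twistedF4 K (2 ^ m))) with hγ'
  have hfix : φ γ' ∈ (F4.reeTwist θ).fixed := by
    rw [← F4.eq_fixed θ hθ hK]
    exact (MulAut.conj g γ').2
  obtain ⟨b, hb, -, n, hn, hnf, u, hu, -, hbnu⟩ := (F4.ree_cls θ).fixed_bnu hfix
  obtain ⟨ψ, -, hker⟩ := F4.weyl_ree θ hθ hK
  have hn16 : wMat C n ^ 16 = 1 := by
    let nn : ↥(chevF4.monomialSubgroup K ⊓ twistedF4 K (2 ^ m)) :=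
      ⟨n, Subgroup.mem_inf.2 ⟨hn, (F4.eq_fixed θ hθ hK).symm ▸ hnf⟩⟩
    have h1 : nn ^ 16 ∈ ψ.ker := by
      rw [MonoidHom.mem_ker, map_pow, ← show Nat.card (DihedralGroup 8) = 16 from DihedralGroup.nat_card]
      exact pow_card_eq_one'
    rw [hker, Subgroup.mem_subgroupOf, Subgroup.coe_pow] at h1
    rw [← wMat_pow C hn]
    exact wMat_eq_one C fun v hv => C.sg_diag (Subgroup.mem_inf.1 h1).1 hv
  have hcent := centralise b n u hb hn hu (φ '' A') (by rintro _ ⟨y, hy, rfl⟩; exact hdiag y hy) (by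
    rintro _ ⟨y, ⟨w, hw, rfl⟩, rfl⟩
    refine ⟨H.subtype (γ * w * γ⁻¹), ⟨_, hγA w hw, rfl⟩, ?_⟩
    rw [← hbnu]
    simp only [map_mul, map_inv]
    rfl) hn16 (x := φ (x : ↥(twistedF4 K (2 ^ m)))) ⟨_, ⟨x, hx, rfl⟩, rfl⟩
  rw [← hbnu, ← map_pow, ← map_inv, ← map_mul, ← map_mul] at hcent
  have h16 : γ ^ 16 * x * (γ ^ 16)⁻¹ = x := Subtype.ext (by
    simp only [Subgroup.coe_mul, Subgroup.coe_inv, Subgroup.coe_pow]
    exact hφinj hcent)
  have := (image_relations π (a := 7) (x := x) hπγ (hxs.symm ▸ hcs)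
    (show e g7 * π x * (e g7)⁻¹ = π x ^ 2 by rw [hxs, ← map_inv, ← map_mul, ← map_mul, hgs, map_pow])
    (by rw [hxs, ← map_pow, hs, map_one]) (fun h => hs1 (extAlt_injective hr7 (by rw [map_one, ← h, hxs])))
    16).1 h16
  exact absurd this (by decide)

end Cfsg.Agent.Lib.Chev.F4ReeSection
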